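import Cfsg.Agent.Lib.ThompsonJ.Stabilizer

/-!
Two subnormal subgroups acting irreducibly on their commutator modules generate their direct
product (`CfsgLib.ThompsonJ`).
-/

set_option autoImplicit false

open scoped commutatorElement

namespace CfsgLib.ThompsonJ

open Cfsg

variable {G : Type*} [Group G] {p : ℕ}

theorem inf_normalizer_le_normalizer_commutator (A B : Subgroup G) :
    Subgroup.normalizer (A : Set G) ⊓ Subgroup.normalizer (B : Set G) ≤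
      Subgroup.normalizer ((⁅A, B⁆ : Subgroup G) : Set G) := by
  rintro g ⟨hA, hB⟩
  rw [Subnormal.mem_normalizer_iff_map_conj, Subgroup.map_commutator,
    Subnormal.mem_normalizer_iff_map_conj.1 hA, Subnormal.mem_normalizer_iff_map_conj.1 hB]

/-- The hypotheses of the subnormal pair lemma on one of the two subgroups. -/
structure IrredPart (p : ℕ) (V E E₁ : Subgroup G) : Prop where
  le : E₁ ≤ E
  sub : (E₁.subgroupOf E).IsSubnormal
  irr : ∀ U : Subgroup G, U ≤ ⁅V, E₁⁆ → E₁ ≤ Subgroup.normalizer (U : Set G) →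
    U = ⊥ ∨ U = ⁅V, E₁⁆
  two_lt : 2 < Nat.card E₁

/-- The hypotheses on the ambient group. -/
structure PairSetting (p : ℕ) (V E : Subgroup G) : Prop where
  elem : IsElementaryAbelian p V
  le_normalizer : E ≤ Subgroup.normalizer (V : Set G)
  faithful : E ⊓ Subgroup.centralizer (V : Set G) = ⊥
  noP : ∀ P : Subgroup G, P ≤ E → (P.subgroupOf E).IsSubnormal → IsPGroup p P → P = ⊥

namespace PairSetting

variable {V E E₁ E₂ : Subgroup G}

theorem commutator_le (h : PairSetting p V E) (h₁ : IrredPart p V E E₁) : ⁅V, E₁⁆ ≤ V :=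
  Subgroup.le_normalizer_iff_commutator_le_left.1 (h₁.le.trans h.le_normalizer)

theorem stabilizer_eq_bot (h : PairSetting p V E) (h₁ : IrredPart p V E E₁) :
    E₁ ⊓ Subgroup.centralizer ((⁅V, E₁⁆ : Subgroup G) : Set G) = ⊥ := by
  set W := ⁅V, E₁⁆
  refine h.noP _ (inf_le_left.trans h₁.le) ?_
    (isPGroup_of_stabilize h.elem (h.commutator_le h₁) ?_ inf_le_right
      fun v hv k hk => Subgroup.commutator_mem_commutator hv hk.1)
  · refine Subnormal.isSubnormal_subgroupOf_trans inf_le_left h₁.le ?_ h₁.sub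
    refine Subgroup.Normal.isSubnormal ?_
    refine ⟨fun x hx g => ⟨E₁.mul_mem (E₁.mul_mem g.2 hx.1) (E₁.inv_mem g.2), fun w hw => ?_⟩⟩
    have hg : (g : G) ∈ Subgroup.normalizer (W : Set G) :=
      Subgroup.normalizer_commutator_ge_right V E₁ g.2
    have hw' := (Subgroup.mem_normalizer_iff''.1 hg w).1 hw
    have := congrArg (fun z => (g : G) * z * (g : G)⁻¹) (hx.2 _ hw')
    simpa [mul_assoc] using this
  · exact le_bot_iff.1 (h.faithful ▸ inf_le_inf_right _ (inf_le_left.trans h₁.le))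

theorem eq_one_of_centralizes (h : PairSetting p V E) (h₁ : IrredPart p V E E₁) {u : G}
    (hu : u ∈ ⁅V, E₁⁆) (hc : u ∈ Subgroup.centralizer (E₁ : Set G)) : u = 1 := by
  have hn : E₁ ≤ Subgroup.normalizer
      ((⁅V, E₁⁆ ⊓ Subgroup.centralizer (E₁ : Set G) : Subgroup G) : Set G) :=
    (Subgroup.le_centralizer_iff.1 inf_le_right).trans (Subgroup.centralizer_le_normalizer _)
  rcases h₁.irr _ inf_le_left hn with hb | hb
  · exact Subgroup.mem_bot.1 (hb ▸ (⟨hu, hc⟩ : u ∈ ⁅V, E₁⁆ ⊓ _))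
  · exfalso
    have h2 : E₁ ≤ Subgroup.centralizer ((⁅V, E₁⁆ : Subgroup G) : Set G) :=
      Subgroup.le_centralizer_iff.1 (inf_eq_left.1 hb)
    have h3 := h₁.two_lt
    rw [show E₁ = ⊥ from by rw [← h.stabilizer_eq_bot h₁]; exact (inf_eq_left.2 h2).symm,
      Subgroup.card_bot] at h3
    omega

variable [Finite G]

theorem disjoint_of_le_normalizer (h : PairSetting p V E) (h₁ : IrredPart p V E E₁)
    (h₂ : IrredPart p V E E₂) (h21 : ¬ ⁅V, E₂⁆ ≤ ⁅V, E₁⁆)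
    (hn : E₂ ≤ Subgroup.normalizer ((⁅V, E₁⁆ : Subgroup G) : Set G)) :
    ⁅E₁, E₂⁆ = ⊥ ∧ ⁅V, E₁⁆ ⊓ ⁅V, E₂⁆ = ⊥ := by
  have hW : ⁅V, E₁⁆ ⊓ ⁅V, E₂⁆ = ⊥ := by
    refine (h₂.irr _ inf_le_right ?_).resolve_right fun he => h21 (inf_eq_right.1 he)
    intro g hg
    have h1 := Subnormal.mem_normalizer_iff_map_conj.1 (hn hg)
    have h2 := Subnormal.mem_normalizer_iff_map_conj.1
      (Subgroup.normalizer_commutator_ge_right V E₂ hg)
    refine Subnormal.mem_normalizer_iff_map_conj.2 ?_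
    rw [Subgroup.map_inf_eq _ _ _ (MulAut.conj g).injective, h1, h2]
  refine ⟨?_, hW⟩
  have hc : ⁅⁅V, E₁⁆, E₂⁆ = ⊥ := le_bot_iff.1 (hW ▸ le_inf
    (Subgroup.le_normalizer_iff_commutator_le_left.1 hn)
    (Subgroup.commutator_mono (h.commutator_le h₁) le_rfl))
  have h0 : (pCore p E).map E.subtype = ⊥ :=
    h.noP _ (Subgroup.map_subtype_le _) (by
      have e : ((pCore p E).map E.subtype).subgroupOf E = pCore p E :=
        Subgroup.comap_map_eq_self_of_injective E.subtype_injective _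
      rw [e]
      exact (inferInstance : (pCore p E).Normal).isSubnormal) ((Cores.isPGroup_pCore p E).map _)
  exact le_bot_iff.1 (h0 ▸
    commutator_le_pCore_of_subnormal h.elem h.le_normalizer h.faithful h₁.le h₂.le h₁.sub h₂.sub hc)

end PairSetting

theorem IrredPart.map_conj {V E E₁ : Subgroup G} (h : PairSetting p V E)
    (h₁ : IrredPart p V E E₁) {g : G} (hg : g ∈ E) :
    IrredPart p V E (E₁.map (MulAut.conj g).toMonoidHom) ∧
      ⁅V, E₁.map (MulAut.conj g).toMonoidHom⁆ =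
        (⁅V, E₁⁆).map (MulAut.conj g).toMonoidHom := by
  set c := (MulAut.conj g).toMonoidHom with hc
  have hE : E.map c = E := Subnormal.mem_normalizer_iff_map_conj.1 (Subgroup.le_normalizer hg)
  have hV : V.map c = V :=
    Subnormal.mem_normalizer_iff_map_conj.1 (h.le_normalizer hg)
  have hW : ⁅V, E₁.map c⁆ = (⁅V, E₁⁆).map c := by rw [Subgroup.map_commutator, hV]
  have hsurj : Function.Surjective c := (MulAut.conj g).surjective
  have hinj : Function.Injective c := (MulAut.conj g).injective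
  refine ⟨⟨(Subgroup.map_mono h₁.le).trans hE.le, ?_, ?_, ?_⟩, hW⟩
  · have := Subnormal.isSubnormal_subgroupOf_map c h₁.le h₁.sub
    rwa [hE] at this
  · intro U hU hn
    rw [hW] at hU ⊢
    have hU' : U.comap c ≤ ⁅V, E₁⁆ := fun x hx => by
      obtain ⟨y, hy, he⟩ := hU hx
      exact hinj he ▸ hy
    have hn' : E₁ ≤ Subgroup.normalizer ((U.comap c : Subgroup G) : Set G) := by
      intro x hx
      refine Subgroup.mem_normalizer_iff.2 fun y => ?_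
      have := Subgroup.mem_normalizer_iff.1 (hn (Subgroup.mem_map_of_mem c hx)) (c y)
      simpa only [Subgroup.mem_comap, map_mul, map_inv] using this
    rcases h₁.irr _ hU' hn' with hb | hb
    · exact .inl (by rw [← Subgroup.map_comap_eq_self_of_surjective hsurj U, hb, Subgroup.map_bot])
    · exact .inr (by rw [← Subgroup.map_comap_eq_self_of_surjective hsurj U, hb])
  · rw [Subgroup.card_map_of_injective hinj]
    exact h₁.two_lt

/-- A translate of one commutator module moved by the other subgroup. -/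
theorem translate_disjoint [Finite G] {V E E₁ E₂ : Subgroup G} (h : PairSetting p V E)
    (h₁ : IrredPart p V E E₁) (hgen : E = E₁ ⊔ E₂) (h21 : ¬ ⁅V, E₂⁆ ≤ ⁅V, E₁⁆)
    (ih : ∀ F F₁ F₂ : Subgroup G, Nat.card F < Nat.card E → F = F₁ ⊔ F₂ → PairSetting p V F →
      IrredPart p V F F₁ → IrredPart p V F F₂ → ¬ ⁅V, F₁⁆ ≤ ⁅V, F₂⁆ → ¬ ⁅V, F₂⁆ ≤ ⁅V, F₁⁆ →
      ⁅F₁, F₂⁆ = ⊥ ∧ ⁅V, F₁⁆ ⊓ ⁅V, F₂⁆ = ⊥)
    {g : G} (hg : g ∈ E₂) (hgn : g ∉ Subgroup.normalizer ((⁅V, E₁⁆ : Subgroup G) : Set G)) :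
    (∀ w ∈ ⁅V, E₁⁆, g * w * g⁻¹ ∈ ⁅V, E₁⁆ → w = 1) ∧
      ∀ w ∈ ⁅V, E₁⁆, g * w * g⁻¹ ∈ Subgroup.centralizer (E₁ : Set G) := by
  have hgE : g ∈ E := hgen ▸ Subgroup.mem_sup_right hg
  obtain ⟨h1', hW⟩ := h₁.map_conj h hgE
  set c := (MulAut.conj g).toMonoidHom with hc
  set E₁' := E₁.map c with hE1'
  have hne : ⁅V, E₁⁆ ≠ (⁅V, E₁⁆).map c := fun he =>
    hgn (Subnormal.mem_normalizer_iff_map_conj.2 he.symm)
  have hcard : Nat.card ↥((⁅V, E₁⁆).map c) = Nat.card ↥⁅V, E₁⁆ :=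
    Subgroup.card_map_of_injective (MulAut.conj g).injective
  set F := E₁ ⊔ E₁' with hF
  have hFE : F ≤ E := sup_le h₁.le h1'.le
  -- `E₁` lies in a proper normal subgroup of `E`
  have hne1 : E₁.subgroupOf E ≠ ⊤ := by
    intro he
    rw [Subgroup.subgroupOf_eq_top] at he
    refine h21 (Subgroup.commutator_mono le_rfl ?_)
    exact le_sup_right.trans (hgen.ge.trans he)
  obtain ⟨N, hNn, hN1, hNlt⟩ := h₁.sub.exists_normal_and_le_and_lt_top_of_ne hne1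
  have hFN : F ≤ N.map E.subtype := by
    refine sup_le (fun x hx => ⟨⟨x, h₁.le hx⟩, hN1 hx, rfl⟩) ?_
    rintro _ ⟨x, hx, rfl⟩
    exact ⟨⟨g, hgE⟩ * ⟨x, h₁.le hx⟩ * (⟨g, hgE⟩ : E)⁻¹, hNn.conj_mem _ (hN1 hx) _, rfl⟩
  have hlt : Nat.card F < Nat.card E := by
    refine lt_of_le_of_lt (Subgroup.card_le_of_le hFN) ?_
    rw [Subgroup.card_map_of_injective E.subtype_injective]
    refine lt_of_le_of_ne (Subgroup.card_le_card_group N) fun he => hNlt.ne ?_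
    exact Subgroup.eq_top_of_card_eq N he
  have hFs : (F.subgroupOf E).IsSubnormal :=
    Subnormal.isSubnormal_subgroupOf_sup h₁.le h1'.le h₁.sub h1'.sub
  have hF' : PairSetting p V F := ⟨h.elem, hFE.trans h.le_normalizer,
    le_bot_iff.1 (h.faithful ▸ inf_le_inf_right _ hFE), fun P hP hPs hPp =>
      h.noP P (hP.trans hFE) (Subnormal.isSubnormal_subgroupOf_trans hP hFE hPs hFs) hPp⟩
  obtain ⟨hcomm, hdis⟩ := ih F E₁ E₁' hlt rfl hF'
    ⟨le_sup_left, Subnormal.isSubnormal_subgroupOf_mono hFE h₁.sub, h₁.irr, h₁.two_lt⟩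
    ⟨le_sup_right, Subnormal.isSubnormal_subgroupOf_mono hFE h1'.sub, h1'.irr, h1'.two_lt⟩
    (fun hle => hne (Subgroup.eq_of_le_of_card_ge (hW ▸ hle) hcard.le))
    (fun hle => hne (Subgroup.eq_of_le_of_card_ge (hW ▸ hle) hcard.ge).symm)
  have hn : E₁ ≤ Subgroup.normalizer ((⁅V, E₁'⁆ : Subgroup G) : Set G) :=
    (le_inf (h₁.le.trans h.le_normalizer)
      ((Subgroup.commutator_eq_bot_iff_le_centralizer.1 hcomm).trans
        (Subgroup.centralizer_le_normalizer _))).trans (inf_normalizer_le_normalizer_commutator _ _)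
  have h0 : ⁅⁅V, E₁'⁆, E₁⁆ = ⊥ := le_bot_iff.1 (hdis ▸ le_inf
    (Subgroup.commutator_mono (h.commutator_le h1') le_rfl)
    (Subgroup.le_normalizer_iff_commutator_le_left.1 hn))
  have hmem : ∀ w ∈ ⁅V, E₁⁆, g * w * g⁻¹ ∈ ⁅V, E₁'⁆ := fun w hw =>
    hW ▸ Subgroup.mem_map_of_mem c hw
  refine ⟨fun w hw hw' => ?_,
    fun w hw => Subgroup.commutator_eq_bot_iff_le_centralizer.1 h0 (hmem w hw)⟩
  have h2 : g * w * g⁻¹ = 1 := Subgroup.mem_bot.1 (hdis ▸ ⟨hw', hmem w hw⟩)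
  simpa using h2

theorem commutator_conj_eq {V : Subgroup G} {p : ℕ} (hV : IsElementaryAbelian p V) {g w w' : G}
    (hg : g ∈ Subgroup.normalizer (V : Set G)) (hw : w ∈ V) (hw' : w' ∈ V) :
    ⁅g, w * w'⁆ = ⁅g, w⁆ * ⁅g, w'⁆ := by
  rw [commutatorElement_mul_right_eq_mul_conj,
    mul_assoc ⁅g, w⁆ w, isElementaryAbelian_comm hV hw
      (show ⁅g, w'⁆ ∈ V from by
        rw [commutatorElement_def]
        exact mul_mem (conj_mem_of_mem_normalizer hg hw') (inv_mem hw')),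
    ← mul_assoc, mul_inv_cancel_right]

theorem commute_of_irreducible [Finite G] {V : Subgroup G} (n : ℕ) :
    ∀ E E₁ E₂ : Subgroup G, Nat.card E = n → E = E₁ ⊔ E₂ → PairSetting p V E →
      IrredPart p V E E₁ → IrredPart p V E E₂ → ¬ ⁅V, E₁⁆ ≤ ⁅V, E₂⁆ → ¬ ⁅V, E₂⁆ ≤ ⁅V, E₁⁆ →
      ⁅E₁, E₂⁆ = ⊥ ∧ ⁅V, E₁⁆ ⊓ ⁅V, E₂⁆ = ⊥ := by
  induction n using Nat.strong_induction_on with
  | _ n ih =>
    intro E E₁ E₂ hn hgen h h₁ h₂ h12 h21
    by_cases hA : E₂ ≤ Subgroup.normalizer ((⁅V, E₁⁆ : Subgroup G) : Set G)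
    · exact h.disjoint_of_le_normalizer h₁ h₂ h21 hA
    by_cases hB : E₁ ≤ Subgroup.normalizer ((⁅V, E₂⁆ : Subgroup G) : Set G)
    · obtain ⟨a, b⟩ := h.disjoint_of_le_normalizer h₂ h₁ h12 hB
      exact ⟨Subgroup.commutator_comm E₁ E₂ ▸ a, inf_comm ⁅V, E₁⁆ _ ▸ b⟩
    exfalso
    obtain ⟨e, he, heN⟩ := SetLike.not_le_iff_exists.1 hA
    set W₁ := ⁅V, E₁⁆ with hW₁
    set W₂ := ⁅V, E₂⁆ with hW₂
    have hW₁V : W₁ ≤ V := h.commutator_le h₁
    have hW₂V : W₂ ≤ V := h.commutator_le h₂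
    have hnV : ∀ x ∈ E, x ∈ Subgroup.normalizer (V : Set G) := fun x hx => h.le_normalizer hx
    have heE : e ∈ E := h₂.le he
    have ih' : ∀ F F₁ F₂ : Subgroup G, Nat.card F < Nat.card E → F = F₁ ⊔ F₂ →
        PairSetting p V F → IrredPart p V F F₁ → IrredPart p V F F₂ →
        ¬ ⁅V, F₁⁆ ≤ ⁅V, F₂⁆ → ¬ ⁅V, F₂⁆ ≤ ⁅V, F₁⁆ →
        ⁅F₁, F₂⁆ = ⊥ ∧ ⁅V, F₁⁆ ⊓ ⁅V, F₂⁆ = ⊥ := fun F F₁ F₂ hlt =>
      ih _ (hn ▸ hlt) F F₁ F₂ rfl
    obtain ⟨hT1, hC1⟩ := translate_disjoint h h₁ hgen h21 ih' he heN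
    have hT2 : ∀ f ∈ E₁, f ∉ Subgroup.normalizer (W₂ : Set G) →
        (∀ u ∈ W₂, f * u * f⁻¹ ∈ W₂ → u = 1) ∧
        ∀ u ∈ W₂, f * u * f⁻¹ ∈ Subgroup.centralizer (E₂ : Set G) := fun f hf hfn =>
      translate_disjoint h h₂ (hgen.trans (sup_comm _ _)) h12 ih' hf hfn
    have hd1 : ∀ w ∈ W₁, ⁅e, w⁆ ∈ W₂ := fun w hw => by
      rw [hW₂, Subgroup.commutator_comm]
      exact Subgroup.commutator_mem_commutator he (hW₁V hw)
    have hd2 : ∀ f ∈ E₁, ∀ u ∈ W₂, ⁅f, u⁆ ∈ W₁ := fun f hf u hu => by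
      rw [hW₁, Subgroup.commutator_comm]
      exact Subgroup.commutator_mem_commutator hf (hW₂V hu)
    have hinj : ∀ (W : Subgroup G) (g : G), W ≤ V → g ∈ E →
        (∀ w ∈ W, g * w * g⁻¹ ∈ W → w = 1) →
        ∀ w ∈ W, ∀ w' ∈ W, ⁅g, w⁆ = ⁅g, w'⁆ → w = w' := by
      intro W g hWV hgE hT w hw w' hw' heq
      have h1 : ⁅g, w * w'⁻¹ * w'⁆ = ⁅g, w * w'⁻¹⁆ * ⁅g, w'⁆ :=
        commutator_conj_eq h.elem (hnV g hgE) (mul_mem (hWV hw) (inv_mem (hWV hw'))) (hWV hw')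
      rw [inv_mul_cancel_right, heq] at h1
      have h2 : ⁅g, w * w'⁻¹⁆ = 1 := mul_eq_right.1 h1.symm
      have hx : w * w'⁻¹ ∈ W := mul_mem hw (inv_mem hw')
      have h3 := hT _ hx (by
        rw [commutatorElement_def, mul_inv_eq_one] at h2
        rw [h2]; exact hx)
      exact mul_inv_eq_one.1 h3
    let φ : W₁ → W₂ := fun w => ⟨⁅e, (w : G)⁆, hd1 _ w.2⟩
    have hφ : Function.Injective φ := fun a b hab => Subtype.ext
      (hinj W₁ e hW₁V heE hT1 _ a.2 _ b.2 (congrArg Subtype.val hab))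
    have hψ : ∀ f ∈ E₁, f ∉ Subgroup.normalizer (W₂ : Set G) →
        ∃ ψ : W₂ → W₁, Function.Injective ψ ∧ ∀ u : W₂, (ψ u : G) = ⁅f, (u : G)⁆ :=
      fun f hf hfn => ⟨fun u => ⟨⁅f, (u : G)⁆, hd2 f hf _ u.2⟩, fun a b hab => Subtype.ext
        (hinj W₂ f hW₂V (h₁.le hf) (hT2 f hf hfn).1 _ a.2 _ b.2 (congrArg Subtype.val hab)),
        fun _ => rfl⟩
    obtain ⟨f₀, hf₀, hf₀N⟩ := SetLike.not_le_iff_exists.1 hB
    obtain ⟨ψ₀, hψ₀, -⟩ := hψ f₀ hf₀ hf₀N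
    have hcard : Nat.card W₁ = Nat.card W₂ :=
      le_antisymm (Nat.card_le_card_of_injective φ hφ) (Nat.card_le_card_of_injective ψ₀ hψ₀)
    have hφs := (Nat.bijective_iff_injective_and_card φ).2 ⟨hφ, hcard⟩
    -- the normalizer of `W₂` in `E₁` is trivial
    have hS : ∀ x ∈ E₁, x ∈ Subgroup.normalizer (W₂ : Set G) → x = 1 := by
      intro x hx hxN
      refine Subgroup.mem_bot.1 (h.stabilizer_eq_bot h₁ ▸ (⟨hx, ?_⟩ : x ∈ E₁ ⊓ _))
      intro w hw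
      obtain ⟨⟨w', hw'⟩, he'⟩ := hφs.2 ⟨x * ⁅e, w⁆ * x⁻¹,
        conj_mem_of_mem_normalizer hxN (hd1 w hw)⟩
      have h1 : ⁅e, w'⁆ = x * ⁅e, w⁆ * x⁻¹ := congrArg Subtype.val he'
      have hxc : x * (e * w * e⁻¹) * x⁻¹ = e * w * e⁻¹ := by
        rw [(hC1 w hw) x hx, mul_inv_cancel_right]
      have h2 : x * ⁅e, w⁆ * x⁻¹ = (e * w * e⁻¹) * (x * w * x⁻¹)⁻¹ := by
        conv_rhs => rw [← hxc]
        rw [commutatorElement_def]; group
      have h3 : e * (w⁻¹ * w') * e⁻¹ = (x * w * x⁻¹)⁻¹ * w' := by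
        rw [h2, commutatorElement_def] at h1
        calc e * (w⁻¹ * w') * e⁻¹ = (e * w * e⁻¹)⁻¹ * (e * w' * e⁻¹ * w'⁻¹) * w' := by group
          _ = (x * w * x⁻¹)⁻¹ * w' := by rw [h1]; group
      have hxW : x * w * x⁻¹ ∈ W₁ :=
        conj_mem_of_mem_normalizer (Subgroup.normalizer_commutator_ge_right V E₁ hx) hw
      have h4 := hT1 _ (mul_mem (inv_mem hw) hw') (h3 ▸ mul_mem (inv_mem hxW) hw')
      rw [h4, mul_one, mul_inv_cancel] at h3
      have h5 : x * w * x⁻¹ = w' := inv_mul_eq_one.1 h3.symm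
      have h6 : w = w' := inv_mul_eq_one.1 h4
      rw [← h6] at h5
      exact (mul_inv_eq_iff_eq_mul.1 h5).symm
    -- all nontrivial elements of `E₁` coincide
    have huniq : ∀ f ∈ E₁, f ≠ 1 → f = f₀ := by
      intro f hf hf1
      have hfN : f ∉ Subgroup.normalizer (W₂ : Set G) := fun hc => hf1 (hS f hf hc)
      obtain ⟨ψ, hψi, hψe⟩ := hψ f hf hfN
      have hψs := (Nat.bijective_iff_injective_and_card ψ).2 ⟨hψi, hcard.symm⟩
      refine (inv_mul_eq_one.1 (hS _ (mul_mem (inv_mem hf₀) hf)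
        (Subgroup.centralizer_le_normalizer _ ?_))).symm
      intro u hu
      obtain ⟨⟨u', hu'⟩, he'⟩ := hψs.2 ⟨⁅f₀, u⁆, hd2 f₀ hf₀ u hu⟩
      have h1 : ⁅f, u'⁆ = ⁅f₀, u⁆ := by rw [← hψe ⟨u', hu'⟩, he']
      have h2 : (f * u' * f⁻¹)⁻¹ * (f₀ * u * f₀⁻¹) = u'⁻¹ * u := by
        rw [commutatorElement_def, commutatorElement_def] at h1
        calc (f * u' * f⁻¹)⁻¹ * (f₀ * u * f₀⁻¹)
            = (f * u' * f⁻¹)⁻¹ * (f₀ * u * f₀⁻¹ * u⁻¹) * u := by group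
          _ = u'⁻¹ * u := by rw [← h1]; group
      have h3 : u'⁻¹ * u = 1 := h.eq_one_of_centralizes h₂ (mul_mem (inv_mem hu') hu)
        (h2 ▸ mul_mem (inv_mem ((hT2 f hf hfN).2 u' hu')) ((hT2 f₀ hf₀ hf₀N).2 u hu))
      rw [h3, inv_mul_eq_one] at h2
      rw [inv_mul_eq_one] at h3
      rw [h3] at h2
      calc u * (f₀⁻¹ * f) = f₀⁻¹ * (f₀ * u * f₀⁻¹) * f := by group
        _ = f₀⁻¹ * f * u := by rw [← h2]; group
    classical
    let code : E₁ → Bool := fun x => decide ((x : G) = 1)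
    have hcode : Function.Injective code := by
      intro a b hab
      simp only [code, decide_eq_decide] at hab
      refine Subtype.ext ?_
      by_cases ha : (a : G) = 1
      · rw [ha, hab.1 ha]
      · rw [huniq _ a.2 ha, huniq _ b.2 fun hb => ha (hab.2 hb)]
    have := Nat.card_le_card_of_injective code hcode
    have h2lt := h₁.two_lt
    simp only [Nat.card_eq_fintype_card (α := Bool), Fintype.card_bool] at this
    omega

/-- The subnormal pair lemma. -/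
theorem subnormal_pair_decomposition [Finite G] {V E E₁ E₂ : Subgroup G}
    (hV : IsElementaryAbelian p V) (hEV : E ≤ Subgroup.normalizer (V : Set G))
    (hf : E ⊓ Subgroup.centralizer (V : Set G) = ⊥) (hgen : E = E₁ ⊔ E₂)
    (hs₁ : (E₁.subgroupOf E).IsSubnormal) (hs₂ : (E₂.subgroupOf E).IsSubnormal)
    (hOp : pCore p ↥E = ⊥)
    (hirr₁ : ∀ U : Subgroup G, U ≤ ⁅V, E₁⁆ → E₁ ≤ Subgroup.normalizer (U : Set G) →
      U = ⊥ ∨ U = ⁅V, E₁⁆)
    (hirr₂ : ∀ U : Subgroup G, U ≤ ⁅V, E₂⁆ → E₂ ≤ Subgroup.normalizer (U : Set G) →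
      U = ⊥ ∨ U = ⁅V, E₂⁆)
    (h12 : ¬ ⁅V, E₁⁆ ≤ ⁅V, E₂⁆) (h21 : ¬ ⁅V, E₂⁆ ≤ ⁅V, E₁⁆) (hc₁ : 2 < Nat.card E₁)
    (hc₂ : 2 < Nat.card E₂) :
    ⁅E₁, E₂⁆ = ⊥ ∧ E₁ ⊓ E₂ = ⊥ ∧ ⁅V, E₁⁆ ⊓ ⁅V, E₂⁆ = ⊥ ∧ ⁅V, E⁆ = ⁅V, E₁⁆ ⊔ ⁅V, E₂⁆ := by
  have h₁ : IrredPart p V E E₁ := ⟨hgen ▸ le_sup_left, hs₁, hirr₁, hc₁⟩
  have h₂ : IrredPart p V E E₂ := ⟨hgen ▸ le_sup_right, hs₂, hirr₂, hc₂⟩
  have h : PairSetting p V E := ⟨hV, hEV, hf, fun P hP hPs hPp =>
    le_bot_iff.1 fun x hx => by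
      have h' := Cores.le_pCore_of_subnormal hPs (hPp.comap_subtype)
        (show (⟨x, hP hx⟩ : E) ∈ P.subgroupOf E from hx)
      rw [hOp, Subgroup.mem_bot, Subtype.ext_iff] at h'
      exact Subgroup.mem_bot.2 h'⟩
  obtain ⟨hc, hW⟩ := commute_of_irreducible _ E E₁ E₂ rfl hgen h h₁ h₂ h12 h21
  refine ⟨hc, ?_, hW, le_antisymm ?_ (sup_le (Subgroup.commutator_mono le_rfl h₁.le)
    (Subgroup.commutator_mono le_rfl h₂.le))⟩
  · refine eq_bot_iff.2 fun z hz => ?_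
    rw [← hf]
    refine ⟨h₁.le hz.1, fun v hv => commutatorElement_eq_one_iff_commute.1 ?_⟩
    rw [← Subgroup.mem_bot, ← hW]
    exact ⟨Subgroup.commutator_mem_commutator hv hz.1, Subgroup.commutator_mem_commutator hv hz.2⟩
  · set W := ⁅V, E₁⁆ ⊔ ⁅V, E₂⁆ with hWdef
    have hWV : W ≤ V := sup_le (h.commutator_le h₁) (h.commutator_le h₂)
    have hn12 : E₁ ≤ Subgroup.normalizer ((⁅V, E₂⁆ : Subgroup G) : Set G) :=
      (le_inf (h₁.le.trans hEV) ((Subgroup.commutator_eq_bot_iff_le_centralizer.1 hc).trans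
        (Subgroup.centralizer_le_normalizer _))).trans (inf_normalizer_le_normalizer_commutator _ _)
    have hn21 : E₂ ≤ Subgroup.normalizer ((⁅V, E₁⁆ : Subgroup G) : Set G) :=
      (le_inf (h₂.le.trans hEV) ((Subgroup.le_centralizer_iff.1
        (Subgroup.commutator_eq_bot_iff_le_centralizer.1 hc)).trans
        (Subgroup.centralizer_le_normalizer _))).trans (inf_normalizer_le_normalizer_commutator _ _)
    have hEW : E ≤ Subgroup.normalizer (W : Set G) := hgen ▸ sup_le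
      (Subnormal.le_normalizer_sup (Subgroup.normalizer_commutator_ge_right V E₁) hn12)
      (Subnormal.le_normalizer_sup hn21 (Subgroup.normalizer_commutator_ge_right V E₂))
    have hall : E ≤ stabilizerModulo V W E hWV hEW hEV := by
      conv_lhs => rw [hgen]
      exact sup_le
        (fun x hx => ⟨h₁.le hx, fun v hv =>
          Subgroup.mem_sup_left (Subgroup.commutator_mem_commutator hv hx)⟩)
        (fun x hx => ⟨h₂.le hx, fun v hv =>
          Subgroup.mem_sup_right (Subgroup.commutator_mem_commutator hv hx)⟩)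
    rw [Subgroup.commutator_le]
    exact fun v hv x hx => (hall hx).2 v hv

end CfsgLib.ThompsonJ
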