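import Cfsg.Agent.Lib.ThompsonJ.Quadratic
import Cfsg.Agent.Lib.Cores.PCore
import Cfsg.Agent.Lib.Subnormal.Join

/-!
Stabilizers of series in a faithfully acting group are `p`-groups; the commutator of subnormal
subgroups `E₁, E₂` with `[V, E₁, E₂] = 1` lies in `O_p` (`CfsgLib.ThompsonJ`).
-/

set_option autoImplicit false

open scoped commutatorElement

namespace CfsgLib.ThompsonJ

open Cfsg

variable {G : Type*} [Group G] {p : ℕ}

theorem pow_mem_centralizer_of_stabilize {V W : Subgroup G} (hV : IsElementaryAbelian p V)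
    (hWV : W ≤ V) {k : G} (hW : k ∈ Subgroup.centralizer (W : Set G))
    (hVW : ∀ v ∈ V, ⁅v, k⁆ ∈ W) : k ^ p ∈ Subgroup.centralizer (V : Set G) := by
  intro v hv
  have hc : Commute k ⁅v, k⁆⁻¹ := (show Commute ⁅v, k⁆ k from hW _ (hVW v hv)).symm.inv_right
  have h := conj_zpow_of_fix (conj_eq_inv_commutator_mul v k) hc p
  rw [zpow_natCast, zpow_natCast, hV.2 _ (inv_mem (hWV (hVW v hv))), one_mul] at h
  calc v * k ^ p = k ^ p * v * (k ^ p)⁻¹ * k ^ p := by rw [h]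
    _ = k ^ p * v := by group

theorem isPGroup_of_stabilize {V W K : Subgroup G} (hV : IsElementaryAbelian p V) (hWV : W ≤ V)
    (hf : K ⊓ Subgroup.centralizer (V : Set G) = ⊥) (hW : K ≤ Subgroup.centralizer (W : Set G))
    (hVW : ∀ v ∈ V, ∀ k ∈ K, ⁅v, k⁆ ∈ W) : IsPGroup p K := by
  rintro ⟨k, hk⟩
  refine ⟨1, Subtype.ext ?_⟩
  have h : k ^ p ∈ K ⊓ Subgroup.centralizer (V : Set G) :=
    ⟨pow_mem hk p, pow_mem_centralizer_of_stabilize hV hWV (hW hk) fun v hv => hVW v hv k hk⟩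
  rw [hf, Subgroup.mem_bot] at h
  simpa using h

/-- The elements acting trivially on `V/W`. -/
def stabilizerModulo (V W E : Subgroup G) (hWV : W ≤ V)
    (hEW : E ≤ Subgroup.normalizer (W : Set G))
    (hEV : E ≤ Subgroup.normalizer (V : Set G)) : Subgroup G where
  carrier := {e | e ∈ E ∧ ∀ v ∈ V, ⁅v, e⁆ ∈ W}
  one_mem' := ⟨one_mem E, fun v _ => by simp⟩
  mul_mem' := by
    rintro a b ⟨ha, ha'⟩ ⟨hb, hb'⟩
    refine ⟨E.mul_mem ha hb, fun v hv => ?_⟩
    rw [commutatorElement_mul_right_eq_mul_conj]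
    rw [mul_assoc, mul_assoc, ← mul_assoc a]
    exact W.mul_mem (ha' v hv) (conj_mem_of_mem_normalizer (hEW ha) (hb' v hv))
  inv_mem' := by
    rintro a ⟨ha, ha'⟩
    refine ⟨E.inv_mem ha, fun v hv => ?_⟩
    have e : ⁅v, a⁻¹⁆ = a⁻¹ * ⁅v, a⁆⁻¹ * a⁻¹⁻¹ := by
      rw [commutatorElement_def, commutatorElement_def]; group
    rw [e]
    exact conj_mem_of_mem_normalizer (hEW (E.inv_mem ha)) (W.inv_mem (ha' v hv))

theorem mem_stabilizerModulo {V W E : Subgroup G} {hWV : W ≤ V}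
    {hEW : E ≤ Subgroup.normalizer (W : Set G)}
    {hEV : E ≤ Subgroup.normalizer (V : Set G)} {e : G} :
    e ∈ stabilizerModulo V W E hWV hEW hEV ↔ e ∈ E ∧ ∀ v ∈ V, ⁅v, e⁆ ∈ W := Iff.rfl

theorem stabilizerModulo_conj {V W E : Subgroup G} {hWV : W ≤ V}
    {hEW : E ≤ Subgroup.normalizer (W : Set G)}
    {hEV : E ≤ Subgroup.normalizer (V : Set G)} {e x : G} (he : e ∈ E)
    (hx : x ∈ stabilizerModulo V W E hWV hEW hEV) :
    e * x * e⁻¹ ∈ stabilizerModulo V W E hWV hEW hEV := by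
  refine ⟨E.mul_mem (E.mul_mem he hx.1) (E.inv_mem he), fun v hv => ?_⟩
  have e' : ⁅v, e * x * e⁻¹⁆ = e * ⁅e⁻¹ * v * e, x⁆ * e⁻¹ := by
    rw [commutatorElement_def, commutatorElement_def]; group
  rw [e']
  exact conj_mem_of_mem_normalizer (hEW he)
    (hx.2 _ ((Subgroup.mem_normalizer_iff''.1 (hEV he) v).1 hv))

/-- If subnormal subgroups satisfy `[V, E₁, E₂] = 1` in a faithful group then `[E₁, E₂] ≤ O_p`. -/
theorem commutator_le_pCore_of_subnormal [Finite G] {V H E₁ E₂ : Subgroup G}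
    (hV : IsElementaryAbelian p V) (hHV : H ≤ Subgroup.normalizer (V : Set G))
    (hf : H ⊓ Subgroup.centralizer (V : Set G) = ⊥) (h₁ : E₁ ≤ H) (h₂ : E₂ ≤ H)
    (hs₁ : (E₁.subgroupOf H).IsSubnormal) (hs₂ : (E₂.subgroupOf H).IsSubnormal)
    (hc : ⁅⁅V, E₁⁆, E₂⁆ = ⊥) : ⁅E₁, E₂⁆ ≤ (pCore p H).map H.subtype := by
  set W := ⁅V, E₁⁆ with hW
  set E := E₁ ⊔ E₂ with hE
  have hWV : W ≤ V := Subgroup.le_normalizer_iff_commutator_le_left.1 (h₁.trans hHV)
  have hEH : E ≤ H := sup_le h₁ h₂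
  have hE2W : E₂ ≤ Subgroup.centralizer (W : Set G) :=
    Subgroup.le_centralizer_iff.1 (Subgroup.commutator_eq_bot_iff_le_centralizer.1 hc)
  have hEW : E ≤ Subgroup.normalizer (W : Set G) :=
    sup_le (Subgroup.normalizer_commutator_ge_right V E₁)
      (hE2W.trans (Subgroup.centralizer_le_normalizer _))
  set K₁ := stabilizerModulo V W E hWV hEW (hEH.trans hHV) with hK₁
  set K := K₁ ⊓ Subgroup.centralizer (W : Set G) with hK
  have hKE : K ≤ E := fun x hx => hx.1.1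
  have hconj : ∀ e ∈ E, ∀ x ∈ Subgroup.centralizer (W : Set G),
      e * x * e⁻¹ ∈ Subgroup.centralizer (W : Set G) := by
    intro e he x hx w hw
    have hw' := (Subgroup.mem_normalizer_iff''.1 (hEW he) w).1 hw
    have h := congrArg (fun z => e * z * e⁻¹) (hx _ hw')
    simpa [mul_assoc] using h
  have hD : ⁅E₁, E₂⁆ ≤ K := by
    rw [Subgroup.commutator_le]
    intro a ha b hb
    have haE : a ∈ E := Subgroup.mem_sup_left ha
    have hbE : b ∈ E := Subgroup.mem_sup_right hb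
    have haK : a ∈ K₁ := ⟨haE, fun v hv => Subgroup.commutator_mem_commutator hv ha⟩
    refine ⟨?_, ?_⟩
    · rw [commutatorElement_def, mul_assoc, mul_assoc, ← mul_assoc b]
      exact mul_mem haK (stabilizerModulo_conj hbE (inv_mem haK))
    · rw [commutatorElement_def]
      exact (Subgroup.centralizer (W : Set G)).mul_mem (hconj a haE b (hE2W hb))
        ((Subgroup.centralizer (W : Set G)).inv_mem (hE2W hb))
  have hKn : (K.subgroupOf E).Normal := by
    refine ⟨fun x hx g => ⟨stabilizerModulo_conj g.2 hx.1, hconj g g.2 _ hx.2⟩⟩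
  have hKp : IsPGroup p K := isPGroup_of_stabilize hV hWV
    (le_bot_iff.1 (hf ▸ inf_le_inf_right _ (hKE.trans hEH))) inf_le_right
    (fun v hv k hk => hk.1.2 v hv)
  have hKs : (K.subgroupOf H).IsSubnormal :=
    Subnormal.isSubnormal_subgroupOf_trans hKE hEH hKn.isSubnormal
      (Subnormal.isSubnormal_subgroupOf_sup h₁ h₂ hs₁ hs₂)
  have h := Cores.le_pCore_of_subnormal hKs
    (hKp.comap_of_injective H.subtype H.subtype_injective)
  refine hD.trans ?_
  rw [← Subgroup.map_subgroupOf_eq_of_le (hKE.trans hEH)]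
  exact Subgroup.map_mono h

end CfsgLib.ThompsonJ
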