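import Cfsg.Agent.Lib.ThompsonJ.Basic
import Cfsg.Agent.Lib.ThompsonJ.SylowTools

/-!
Modules generated by fixed points of Sylow subgroups: `⨆_S Ω₁(Z(S))` and the absence of normal
`p`-subgroups modulo its centralizer (`CfsgLib.ThompsonJ`).
-/

set_option autoImplicit false

namespace CfsgLib.ThompsonJ

open Cfsg

variable {G : Type*} [Group G] [Finite G] {p : ℕ} [hp : Fact p.Prime]

/-- If `V` is generated by subgroups centralized by the Sylow subgroups, a normal subgroup of
`p`-power index over `C(V)` equals `C(V)`. -/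
theorem le_centralizer_of_relIndex {ι : Sort*} {V : Subgroup G} {W : ι → Subgroup G}
    {T : ι → Sylow p G} (hgen : V ≤ ⨆ i, W i)
    (hW : ∀ i, (T i : Subgroup G) ≤ Subgroup.centralizer (W i : Set G))
    (hWV : ∀ i, W i ≤ V) {D : Subgroup G} [D.Normal]
    (hCD : Subgroup.centralizer (V : Set G) ≤ D)
    (hk : ∃ k : ℕ, (Subgroup.centralizer (V : Set G)).relIndex D = p ^ k) :
    D ≤ Subgroup.centralizer (V : Set G) := by
  refine Subgroup.le_centralizer_iff.1 (hgen.trans (iSup_le fun i => ?_))
  refine Subgroup.le_centralizer_iff.1 ?_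
  rw [eq_sup_inf_sylow (T i) hCD hk]
  exact sup_le (Subgroup.centralizer_le (hWV i)) (inf_le_left.trans (hW i))

theorem pCore_quotient_centralizer_eq_bot {ι : Sort*} {V : Subgroup G} [V.Normal]
    {W : ι → Subgroup G} {T : ι → Sylow p G} (hgen : V ≤ ⨆ i, W i)
    (hW : ∀ i, (T i : Subgroup G) ≤ Subgroup.centralizer (W i : Set G)) (hWV : ∀ i, W i ≤ V) :
    pCore p (G ⧸ Subgroup.centralizer (V : Set G)) = ⊥ := by
  set C := Subgroup.centralizer (V : Set G) with hC
  have hCD : C ≤ (pCore p (G ⧸ C)).comap (QuotientGroup.mk' C) := fun x hx => by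
    rw [Subgroup.mem_comap, QuotientGroup.mk'_apply, (QuotientGroup.eq_one_iff x).2 hx]
    exact one_mem _
  have h := le_centralizer_of_relIndex hgen hW hWV hCD (relIndex_comap_pCore C)
  rw [eq_bot_iff]
  intro q hq
  obtain ⟨x, rfl⟩ := QuotientGroup.mk'_surjective C q
  rw [Subgroup.mem_bot, QuotientGroup.mk'_apply, QuotientGroup.eq_one_iff]
  exact h hq

/-- `Ω₁(Z(S))` of a Sylow subgroup, inside `G`. -/
theorem sylow_le_centralizer_omegaCenter (S : Sylow p G) :
    (S : Subgroup G) ≤ Subgroup.centralizer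
      (omegaOne p ((S : Subgroup G) ⊓ Subgroup.centralizer ((S : Subgroup G) : Set G)) : Set G) :=
  Subgroup.le_centralizer_iff.1 ((omegaOne_le p _).trans inf_le_right)

omit [Finite G] hp in
theorem map_conj_omegaCenter (g : G) (K : Subgroup G) :
    (omegaOne p (K ⊓ Subgroup.centralizer (K : Set G))).map (MulAut.conj g).toMonoidHom =
      omegaOne p (K.map (MulAut.conj g).toMonoidHom ⊓
        Subgroup.centralizer (K.map (MulAut.conj g).toMonoidHom : Set G)) := by
  rw [map_omegaOne (MulAut.conj g).injective, map_inf_centralizer (MulAut.conj g).injective]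

omit [Finite G] hp in
theorem iSup_omegaCenter_normal :
    (⨆ S : Sylow p G,
      omegaOne p ((S : Subgroup G) ⊓ Subgroup.centralizer ((S : Subgroup G) : Set G))).Normal := by
  refine ⟨fun x hx g => ?_⟩
  have h : (⨆ S : Sylow p G, omegaOne p ((S : Subgroup G) ⊓
      Subgroup.centralizer ((S : Subgroup G) : Set G))).map (MulAut.conj g).toMonoidHom ≤
      ⨆ S : Sylow p G, omegaOne p ((S : Subgroup G) ⊓
        Subgroup.centralizer ((S : Subgroup G) : Set G)) := by
    rw [Subgroup.map_iSup]
    refine iSup_le fun S => ?_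
    rw [map_conj_omegaCenter]
    exact le_iSup (fun T : Sylow p G => omegaOne p ((T : Subgroup G) ⊓
      Subgroup.centralizer ((T : Subgroup G) : Set G))) (g • S)
  exact h ⟨x, hx, rfl⟩

theorem omegaCenter_le_center_pCore
    (hc : Subgroup.centralizer (pCore p G : Set G) ≤ pCore p G) (S : Sylow p G) :
    omegaOne p ((S : Subgroup G) ⊓ Subgroup.centralizer ((S : Subgroup G) : Set G)) ≤
      pCore p G ⊓ Subgroup.centralizer (pCore p G : Set G) := by
  have h : omegaOne p ((S : Subgroup G) ⊓ Subgroup.centralizer ((S : Subgroup G) : Set G)) ≤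
      Subgroup.centralizer (pCore p G : Set G) :=
    (omegaOne_le p _).trans (inf_le_right.trans
      (Subgroup.centralizer_le (Cores.pCore_le_sylow S)))
  exact le_inf (h.trans hc) h

theorem isElementaryAbelian_iSup_omegaCenter
    (hc : Subgroup.centralizer (pCore p G : Set G) ≤ pCore p G) :
    IsElementaryAbelian p (⨆ S : Sylow p G,
      omegaOne p ((S : Subgroup G) ⊓ Subgroup.centralizer ((S : Subgroup G) : Set G))) :=
  isElementaryAbelian_iSup
    (fun _ => isElementaryAbelian_omegaOne (inf_centralizer_le_centralizer_self _))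
    (fun S T => (omegaCenter_le_center_pCore hc S).trans (inf_le_right.trans
      (Subgroup.centralizer_le ((omegaCenter_le_center_pCore hc T).trans inf_le_left))))

end CfsgLib.ThompsonJ
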