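import Cfsg.Agent.Lib.ThompsonJ.CoprimeQuotient
import Cfsg.Agent.Lib.ThompsonJ.FixedPointModule

/-!
Thompson factorizability (`CfsgLib.ThompsonJ`).
-/

set_option autoImplicit false

namespace CfsgLib.ThompsonJ

open Cfsg

variable {G : Type*} [Group G] [Finite G] {p : ℕ} [hp : Fact p.Prime]

/-- If `J(G)` centralizes every `Ω₁(Z(S))`, then `G = C(Ω₁(Z(S))) N(J(S))`. -/
theorem factorization_of_le_centralizer (hJ : thompsonSubgroup p G ≤ Subgroup.centralizer
      ((⨆ S : Sylow p G, omegaOne p ((S : Subgroup G) ⊓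
        Subgroup.centralizer ((S : Subgroup G) : Set G)) : Subgroup G) : Set G))
    (S : Sylow p G) (g : G) :
    ∃ c ∈ Subgroup.centralizer (omegaOne p ((S : Subgroup G) ⊓
        Subgroup.centralizer ((S : Subgroup G) : Set G)) : Set G),
      ∃ n ∈ Subgroup.normalizer (thompsonSubgroupOf p (S : Subgroup G) : Set G), g = c * n := by
  haveI := iSup_omegaCenter_normal (G := G) (p := p)
  set V := ⨆ S : Sylow p G, omegaOne p ((S : Subgroup G) ⊓
        Subgroup.centralizer ((S : Subgroup G) : Set G)) with hV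
  obtain ⟨c, hc, n, hn, rfl⟩ := exists_mul_normalizer_inf_sylow S (Subgroup.centralizer (V : Set G)) g
  refine ⟨c, Subgroup.centralizer_le ?_ hc, n, ?_, rfl⟩
  · exact le_iSup (fun S : Sylow p G => omegaOne p ((S : Subgroup G) ⊓
      Subgroup.centralizer ((S : Subgroup G) : Set G))) S
  · have hJS : thompsonSubgroupOf p ((S : Subgroup G) ⊓ Subgroup.centralizer (V : Set G)) =
        thompsonSubgroupOf p (S : Subgroup G) :=
      thompsonSubgroupOf_eq_of_le inf_le_left (le_inf (thompsonSubgroupOf_le p _)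
        ((thompsonSubgroupOf_sylow_le S).trans hJ))
    rw [← hJS]
    exact normalizer_le_normalizer_thompsonSubgroupOf p _ hn

/-- If `G = C(Ω₁(Z(S))) N(J(S))` for every `S`, then `J(G)` centralizes every `Ω₁(Z(S))`. -/
theorem le_centralizer_of_factorization (h : ∀ (S : Sylow p G) (g : G),
    ∃ c ∈ Subgroup.centralizer (omegaOne p ((S : Subgroup G) ⊓
        Subgroup.centralizer ((S : Subgroup G) : Set G)) : Set G),
      ∃ n ∈ Subgroup.normalizer (thompsonSubgroupOf p (S : Subgroup G) : Set G), g = c * n) :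
    thompsonSubgroup p G ≤ Subgroup.centralizer
      ((⨆ S : Sylow p G, omegaOne p ((S : Subgroup G) ⊓
        Subgroup.centralizer ((S : Subgroup G) : Set G)) : Subgroup G) : Set G) := by
  rw [thompsonSubgroup_eq_iSup_sylow]
  refine iSup_le fun S => Subgroup.le_centralizer_iff.1 (iSup_le fun T => ?_)
  refine Subgroup.le_centralizer_iff.1 ?_
  obtain ⟨g, rfl⟩ := MulAction.exists_smul_eq G S T
  obtain ⟨c, hc, n, hn, hg⟩ := h S g⁻¹
  have hgc : g = n⁻¹ * c⁻¹ := by rw [← inv_inv g, hg, mul_inv_rev]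
  intro j hj z hz
  rw [Sylow.coe_subgroup_smul, Subgroup.pointwise_smul_def] at hz
  change z ∈ omegaOne p ((S : Subgroup G).map (MulAut.conj g).toMonoidHom ⊓
    Subgroup.centralizer ((S : Subgroup G).map (MulAut.conj g).toMonoidHom : Set G)) at hz
  rw [← map_conj_omegaCenter] at hz
  obtain ⟨w, hw, rfl⟩ := hz
  have hj' : n * j * n⁻¹ ∈ thompsonSubgroupOf p (S : Subgroup G) :=
    (Subgroup.mem_normalizer_iff.1 hn j).1 hj
  have h1 : w * (n * j * n⁻¹) = n * j * n⁻¹ * w :=
    ((thompsonSubgroupOf_le p _).trans (sylow_le_centralizer_omegaCenter S) hj') w hw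
  have h2 : c⁻¹ * w * c = w := by
    rw [mul_assoc, hc w hw, inv_mul_cancel_left]
  calc (MulAut.conj g) w * j = n⁻¹ * ((c⁻¹ * w * c) * (n * j * n⁻¹)) * n := by
        rw [MulAut.conj_apply, hgc]; group
    _ = n⁻¹ * ((n * j * n⁻¹) * (c⁻¹ * w * c)) * n := by rw [h2, h1]
    _ = j * (MulAut.conj g) w := by rw [MulAut.conj_apply, hgc]; group

end CfsgLib.ThompsonJ
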