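import Mathlib
import Cfsg.Agent.Lib.ThompsonJ.SL2Unipotent
import Cfsg.Agent.Lib.SL2.Basic
import Cfsg.Agent.Lib.SL2.Normalizer
import Cfsg.Agent.Lib.SL2.Dickson.Generation
import Cfsg.Agent.Lib.CoprimeAction.Sylow

/-!
Finite subgroups of `SL(2, F)` generated by two unipotent elements, `char F` odd
(`CfsgLib.ThompsonJ`).
-/

set_option autoImplicit false

open Matrix
open scoped MatrixGroups
open CfsgLib.SL2 (tr)
open CfsgLib.SL2.Dickson (lowS lowS_coe lowS_zero lowS_add)
open CfsgLib.ClassicalLinear (upS upS_coe upS_add)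

namespace CfsgLib.ThompsonJ

variable {F : Type*} [Field F] {p : ℕ} [Fact p.Prime] [CharP F p]

local notation "M₂" => Matrix (Fin 2) (Fin 2) F
local notation "SL₂F" => Matrix.SpecialLinearGroup (Fin 2) F

theorem unipotent_key {a x : SL₂F} {R : Subgroup SL₂F} (h2 : (2 : F) ≠ 0)
    (ha : ((a : M₂) - 1) ^ 2 = 0) (hap : a ^ p = 1) (ha1 : a ≠ 1) (hx : x ∈ R)
    (hxc : x ∉ Subgroup.center SL₂F) (hax : a * x = x * a) (hR : (Nat.card R).Coprime p) :
    False := by
  have hac : a ∉ Subgroup.center SL₂F := by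
    intro h
    rcases (SL2.mem_center_iff a).1 h with h1 | h1
    · exact ha1 h1
    · subst h1
      have h3 := congrFun (congrFun ha 0) 0
      simp [sq, Matrix.mul_apply] at h3
      exact h2 (by grind)
  obtain ⟨u, v, hxe⟩ := (SL2.mem_centralizer_singleton_iff' hac x).1
    (Subgroup.mem_centralizer_singleton_iff.2 hax.symm)
  have hta : tr a = 2 := by
    have h3 := congrArg Matrix.det ha
    rw [Matrix.det_pow, Matrix.det_zero] at h3
    have h4 := (pow_eq_zero_iff two_ne_zero).1 h3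
    have hd := SL2.det_eq a
    rw [Matrix.det_fin_two] at h4
    simp at h4
    simp only [tr]
    grind
  have ht : tr x ^ 2 = 4 := by
    have hd : u ^ 2 + tr a * u * v + v ^ 2 = 1 := by
      have := x.det_coe
      rwa [hxe, SL2.det_lin] at this
    have : tr x = 2 * u + v * tr a := by simp [tr, hxe]; ring
    rw [this, hta]
    rw [hta] at hd
    linear_combination 4 * hd
  have h1 : x ^ (2 * p) = 1 := pow_two_mul_of_tr h2 ht
  have h2' : x ^ 2 = 1 := by
    rw [← orderOf_dvd_iff_pow_eq_one]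
    exact (Nat.Coprime.dvd_of_dvd_mul_right
      (hR.coprime_dvd_left (Subgroup.orderOf_dvd_natCard R hx)) (orderOf_dvd_of_pow_eq_one h1))
  by_cases hx1 : x = 1
  · exact hxc (hx1 ▸ one_mem _)
  · exact hxc ((SL2.mem_center_iff x).2 (Or.inr (SL2.eq_neg_one_of_sq_eq_one h2 h2' hx1)))


/-- A unipotent element acting nontrivially on a finite `p'`-subgroup: `p = 3` and `SL(2, 3)`
occurs. -/
theorem exists_sl2_three (hp : p ≠ 2) {X : Subgroup SL₂F} [Finite X] {a : SL₂F} (haX : a ∈ X)
    (ha : ((a : M₂) - 1) ^ 2 = 0) {R : Subgroup SL₂F} (hRX : R ≤ X)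
    (hR : (Nat.card R).Coprime p) (hRn : a ∈ Subgroup.normalizer (R : Set SL₂F))
    (hne : ∃ r ∈ R, a * r ≠ r * a) :
    p = 3 ∧ ∃ Y : Subgroup SL₂F, Y ≤ X ∧
      Nonempty (Y ≃* Matrix.SpecialLinearGroup (Fin 2) (ZMod 3)) := by
  have h2 := two_ne_zero_of_ne_two (F := F) hp
  have hap : a ^ p = 1 := sl2_pow_eq_one_of_sq ha
  haveI : Finite R := ((Set.toFinite (X : Set SL₂F)).subset hRX).to_subtype
  have hodd : Odd p := (Fact.out : p.Prime).odd_of_ne_two hp
  -- a non-central element of `R` is moved off its centralizer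
  have key : ∀ x ∈ R, x ∉ Subgroup.center SL₂F → Commute x (a * x * a⁻¹) → False := by
    intro x hx hxc hcomm
    have ht : tr x ^ 2 ≠ 4 := by
      intro ht
      have h1 : x ^ (2 * p) = 1 := pow_two_mul_of_tr h2 ht
      have h2' : x ^ 2 = 1 := by
        rw [← orderOf_dvd_iff_pow_eq_one]
        refine (Nat.Coprime.dvd_of_dvd_mul_right ?_ (orderOf_dvd_of_pow_eq_one h1))
        exact (hR.coprime_dvd_left (Subgroup.orderOf_dvd_natCard R hx))
      by_cases hx1 : x = 1
      · exact hxc (hx1 ▸ one_mem _)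
      · exact hxc ((SL2.mem_center_iff x).2 (Or.inr (SL2.eq_neg_one_of_sq_eq_one h2 h2' hx1)))
    rcases SL2.eq_or_eq_inv ht (Subgroup.mem_centralizer_singleton_iff.2 hcomm.symm.eq)
      (SL2.tr_conj x a) with h1 | h1
    · -- `a` centralizes `x`
      have hax : a * x = x * a := mul_inv_eq_iff_eq_mul.1 h1
      refine unipotent_key h2 ha hap ?_ hx hxc hax hR
      rintro rfl
      exact hne.elim fun r hr => hr.2 (by simp)
    · have hasq : a ^ 2 * x * (a ^ 2)⁻¹ = x := by
        calc a ^ 2 * x * (a ^ 2)⁻¹ = a * (a * x * a⁻¹) * a⁻¹ := by rw [sq, _root_.mul_inv_rev]; group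
          _ = a * x⁻¹ * a⁻¹ := by rw [h1]
          _ = (a * x * a⁻¹)⁻¹ := by group
          _ = x := by rw [h1, inv_inv]
      obtain ⟨m, hm⟩ := hodd
      have hax : a * x = x * a := by
        have hc : Commute (a ^ 2) x := mul_inv_eq_iff_eq_mul.1 hasq
        have ha2 : a = ((a ^ 2) ^ (m + 1)) := by
          rw [← pow_mul, show 2 * (m + 1) = p + 1 by omega, pow_succ, hap, one_mul]
        rw [ha2]
        exact (hc.pow_left _).eq
      exact SL2.inv_ne_self ht (h1.symm.trans (mul_inv_eq_iff_eq_mul.2 hax))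
  -- an invariant Sylow subgroup which is not centralized
  have hAR : Subgroup.zpowers a ≤ Subgroup.normalizer (R : Set SL₂F) := Subgroup.zpowers_le.2 hRn
  have haord : orderOf a ∣ p := orderOf_dvd_of_pow_eq_one hap
  haveI : Finite X := inferInstance
  have hW : ∃ r, r.Prime ∧ ∃ P : Subgroup SL₂F, IsPGroup r P ∧ P ≤ R ∧
      a ∈ Subgroup.normalizer (P : Set SL₂F) ∧ ∃ x ∈ P, a * x ≠ x * a := by
    by_contra hcon
    push_neg at hcon
    obtain ⟨r₀, hr₀, hne'⟩ := hne
    -- work inside the finite group `X`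
    set R' : Subgroup X := R.subgroupOf X with hR'
    set a' : X := ⟨a, haX⟩ with ha'
    have hA' : Subgroup.zpowers a' ≤ Subgroup.normalizer (R' : Set X) := by
      rw [Subgroup.zpowers_le, Subgroup.mem_normalizer_iff]
      intro x
      exact Subgroup.mem_normalizer_iff.1 hRn (x : SL₂F)
    have hcR : Nat.card R' = Nat.card R := Nat.card_congr (Subgroup.subgroupOfEquivOfLe hRX).toEquiv
    have hcop : (Nat.card (Subgroup.zpowers a')).Coprime (Nat.card R') := by
      rw [Nat.card_zpowers, ← Subgroup.orderOf_coe, hcR]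
      exact (hR.coprime_dvd_right haord).symm
    have hall : Nat.card R' ∣ Nat.card ↥(R' ⊓ Subgroup.centralizer (Subgroup.zpowers a' : Set X)) := by
      rw [Nat.dvd_iff_prime_pow_dvd_dvd]
      intro q k hq hqk
      haveI := Fact.mk hq
      obtain ⟨P, hP⟩ := CoprimeAction.exists_invariant_sylow hA' hcop
        (Or.inl (CoprimeAction.isSolvable_zpowers a')) q
      have hPc : (P : Subgroup R').map R'.subtype ≤
          R' ⊓ Subgroup.centralizer (Subgroup.zpowers a' : Set X) := by
        refine le_inf (Subgroup.map_subtype_le _) ?_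
        rintro x ⟨y, hy, rfl⟩ _ ⟨n, rfl⟩
        have hyR : ((y : X) : SL₂F) ∈ R := y.2
        have hcomm : a * ((y : X) : SL₂F) = ((y : X) : SL₂F) * a := by
          refine hcon q hq (((P : Subgroup R').map R'.subtype).map X.subtype)
            ((P.isPGroup'.map _).map _) ?_ ?_ _ ⟨_, ⟨y, hy, rfl⟩, rfl⟩
          · rintro _ ⟨_, ⟨z, -, rfl⟩, rfl⟩
            exact z.2
          · exact (Subgroup.le_normalizer_map X.subtype)
              ⟨a', hP (Subgroup.mem_zpowers a'), rfl⟩
        have hc : Commute a' (y : X) := Subtype.ext hcomm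
        exact (hc.zpow_left n).eq
      refine dvd_trans ?_ (Subgroup.card_dvd_of_le hPc)
      rw [Subgroup.card_map_of_injective R'.subtype_injective]
      exact (P.pow_dvd_card_of_pow_dvd_card hqk)
    have heq : R' ⊓ Subgroup.centralizer (Subgroup.zpowers a' : Set X) = R' :=
      Subgroup.eq_of_le_of_card_ge inf_le_left (Nat.le_of_dvd Nat.card_pos hall)
    have hmem : (⟨r₀, hRX hr₀⟩ : X) ∈ R' := hr₀
    rw [← heq] at hmem
    exact hne' (congrArg Subtype.val (hmem.2 a' (Subgroup.mem_zpowers a')))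
  obtain ⟨r, hr, P, hPp, hPR, hPn, x₀, hx₀, hx₀ne⟩ := hW
  haveI := Fact.mk hr
  haveI : Finite P := ((Set.toFinite (R : Set SL₂F)).subset hPR).to_subtype
  have hx₀c : x₀ ∉ Subgroup.center SL₂F := fun h => hx₀ne ((Subgroup.mem_center_iff.1 h) a)
  have hconj : ∀ x ∈ P, a * x * a⁻¹ ∈ P := fun x hx => (Subgroup.mem_normalizer_iff.1 hPn x).1 hx
  -- `r = 2`
  have hr2 : r = 2 := by
    haveI : Nontrivial P :=
      ⟨⟨x₀, hx₀⟩, 1, fun h => hx₀c (by rw [show x₀ = 1 from congrArg Subtype.val h]; exact one_mem _)⟩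
    haveI := hPp.center_nontrivial
    obtain ⟨z, hz⟩ := exists_ne (1 : Subgroup.center P)
    have hzc : ∀ y ∈ P, y * ((z : P) : SL₂F) = ((z : P) : SL₂F) * y := fun y hy =>
      congrArg Subtype.val (Subgroup.mem_center_iff.1 z.2 ⟨y, hy⟩)
    by_cases hzs : ((z : P) : SL₂F) ∈ Subgroup.center SL₂F
    · have hz1 : ((z : P) : SL₂F) = -1 := ((SL2.mem_center_iff _).1 hzs).resolve_left
        fun h => hz (Subtype.ext (Subtype.ext h))
      obtain ⟨k, hk⟩ := IsPGroup.iff_card.1 hPp
      have := Subgroup.orderOf_dvd_natCard P (z : P).2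
      rw [hz1, orderOf_neg_one hp, hk] at this
      exact ((Nat.prime_dvd_prime_iff_eq Nat.prime_two hr).1 (Nat.prime_two.dvd_of_dvd_pow this)).symm
    · exfalso
      exact key x₀ (hPR hx₀) hx₀c (SL2.centralizer_mulComm hzs
        (Subgroup.mem_centralizer_singleton_iff.2 (hzc _ hx₀))
        (Subgroup.mem_centralizer_singleton_iff.2 (hzc _ (hconj _ hx₀))))
  subst hr2
  -- every element of `P` has order dividing four
  have h4 : ∀ x ∈ P, x ^ 4 = 1 := by
    by_contra hcon
    push_neg at hcon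
    obtain ⟨x, hx, hx4⟩ := hcon
    have hxc : x ∉ Subgroup.center SL₂F := by
      intro h
      rcases (SL2.mem_center_iff x).1 h with rfl | rfl
      · exact hx4 (one_pow 4)
      · exact hx4 (Subtype.ext (by rw [Matrix.SpecialLinearGroup.coe_pow]; simp [Even.neg_one_pow (show Even 4 by decide)]))
    have ht : ∀ y ∈ P, y ^ 4 ≠ 1 → tr y ^ 2 ≠ 4 := by
      intro y hy hy4 ht
      have h1 : y ^ (2 * p) = 1 := pow_two_mul_of_tr h2 ht
      obtain ⟨k, hk⟩ := hPp ⟨y, hy⟩
      have h3 : y ^ 2 = 1 := by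
        rw [← orderOf_dvd_iff_pow_eq_one]
        refine Nat.Coprime.dvd_of_dvd_mul_right ?_ (orderOf_dvd_of_pow_eq_one h1)
        exact (((Nat.coprime_primes Nat.prime_two Fact.out).2 (Ne.symm hp)).pow_left k).coprime_dvd_left
          (orderOf_dvd_of_pow_eq_one (by simpa using congrArg Subtype.val hk))
      exact hy4 (by rw [show 4 = 2 * 2 from rfl, pow_mul, h3, one_pow])
    set C := Subgroup.centralizer ({x} : Set SL₂F) with hC
    set N := P ⊓ Subgroup.normalizer (C : Set SL₂F) with hN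
    have hNC : ∀ n ∈ N, n ^ 4 ≠ 1 → n ∈ C := by
      intro n hn hn4
      rcases (SL2.mem_normalizer_iff (ht x hx hx4) n).1 hn.2 with h1 | h1
      · exact Subgroup.mem_centralizer_singleton_iff.2 (mul_inv_eq_iff_eq_mul.1 h1)
      · exfalso
        have h3 := SL2.mul_self_eq_neg_one hxc h1
        exact hn4 (by rw [show 4 = 2 * 2 from rfl, pow_mul, sq n, h3]; simp)
    have hxN : x ∈ N :=
      ⟨hx, Subgroup.le_normalizer (Subgroup.mem_centralizer_singleton_iff.2 rfl)⟩
    have hconj4 : ∀ m y : SL₂F, y ^ 4 ≠ 1 → (m * y * m⁻¹) ^ 4 ≠ 1 := by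
      intro m y hy h
      rw [conj_pow, mul_inv_eq_one, mul_eq_left] at h
      exact hy h
    have hNP : N.subgroupOf P = ⊤ := by
      haveI : Group.IsNilpotent P := hPp.isNilpotent
      by_contra hne2
      obtain ⟨m, hm, hmN⟩ := SetLike.exists_of_lt
        (normalizerCondition_of_isNilpotent (N.subgroupOf P) (Ne.lt_top hne2))
      refine hmN ⟨m.2, ?_⟩
      have hmx : (m : SL₂F) * x * (m : SL₂F)⁻¹ ∈ N :=
        (Subgroup.mem_normalizer_iff.1 hm ⟨x, hx⟩).1 hxN
      have h1 : (m : SL₂F) * x * (m : SL₂F)⁻¹ ∈ C := hNC _ hmx (hconj4 _ _ hx4)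
      exact (SL2.mem_normalizer_iff (ht x hx hx4) _).2
        (SL2.eq_or_eq_inv (ht x hx hx4) h1 (SL2.tr_conj x _))
    rw [Subgroup.subgroupOf_eq_top] at hNP
    have h1 : a * x * a⁻¹ ∈ C := hNC _ (hNP (hconj x hx)) (hconj4 _ _ hx4)
    exact key x (hPR hx) hxc (Subgroup.mem_centralizer_singleton_iff.1 h1).symm
  -- the pair `a`, `x₀ a x₀⁻¹`
  set b := x₀ * a * x₀⁻¹ with hb
  have hbX : b ∈ X := mul_mem (mul_mem (hRX (hPR hx₀)) haX) (inv_mem (hRX (hPR hx₀)))
  have hbq : ((b : M₂) - 1) ^ 2 = 0 :=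
    sl2_sq_eq_zero_of_pow (k := 1) (by rw [pow_one, hb, conj_pow, hap]; group)
  have hmemi : ∀ i : ℕ, a ^ i * (b ^ i)⁻¹ ∈ P := by
    intro i
    have : a ^ i * (b ^ i)⁻¹ = (a ^ i * x₀ * (a ^ i)⁻¹) * x₀⁻¹ := by rw [hb, conj_pow]; group
    rw [this]
    exact mul_mem ((Subgroup.mem_normalizer_iff.1 (pow_mem hPn i) x₀).1 hx₀) (inv_mem hx₀)
  have hab : a * b ≠ b * a := by
    intro h
    have hc : Commute a b := h
    have h1 : (a * b⁻¹) ^ p = 1 := by
      rw [hc.inv_right.mul_pow, hap, inv_pow, hb, conj_pow, hap]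
      group
    have h3 := hmemi 1
    rw [pow_one, pow_one] at h3
    obtain ⟨k, hk⟩ := hPp ⟨_, h3⟩
    have h5 : a * b⁻¹ = 1 := by
      rw [← orderOf_eq_one_iff]
      exact Nat.eq_one_of_dvd_coprimes (((Nat.coprime_primes Fact.out Nat.prime_two).2 hp).pow_right k)
        (orderOf_dvd_of_pow_eq_one h1)
        (orderOf_dvd_of_pow_eq_one (by simpa using congrArg Subtype.val hk))
    have h6 : a = x₀ * a * x₀⁻¹ := mul_inv_eq_one.1 h5
    exact hx₀ne (mul_inv_eq_iff_eq_mul.1 h6.symm).symm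
  obtain ⟨g, lam, hlam, hga, hgb⟩ := exists_normal_form ha hbq hab
  -- traces
  have htr : ∀ i : ℕ, (i : F) ^ 2 * lam = 0 ∨ (i : F) ^ 2 * lam = 2 ∨ (i : F) ^ 2 * lam = 4 := by
    intro i
    have e : tr (a ^ i * (b ^ i)⁻¹) = 2 - (i : F) ^ 2 * lam := by
      rw [← hga, ← hgb, ← map_pow, ← map_pow, ← map_inv, ← map_mul, tr_glConj,
        ← SL2.Dickson.lowS_nsmul, upS_nsmul, upS_inv]
      simp [tr, lowS_coe, upS_coe, Matrix.mul_apply]
      ring
    rcases tr_eq_zero_of_pow_four hp (h4 _ (hmemi i)) with h | h | h <;> rw [e] at h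
    · right; left; linear_combination -h
    · left; linear_combination -h
    · right; right; linear_combination -h
  have hl1 : lam = 2 ∨ lam = 4 := by
    rcases htr 1 with h | h | h <;> simp at h
    · exact absurd h hlam
    · exact Or.inl h
    · exact Or.inr h
  have hcast : ∀ n : ℕ, (n : F) = 0 → p ∣ n := fun n => (CharP.cast_eq_zero_iff F p n).1
  have hdvd : ∀ {n q : ℕ}, q.Prime → n = q → (n : F) = 0 → p = q := fun hq hn h =>
    (Nat.prime_dvd_prime_iff_eq Fact.out hq).1 (hn ▸ hcast _ h)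
  have hp3 : p = 3 := by
    have h2' := htr 2
    push_cast at h2'
    rcases hl1 with rfl | rfl <;> rcases h2' with h | h | h
    · exact absurd (eq_zero_of_pow_eq_zero (n := 3) (by linear_combination h)) h2
    · exact hdvd Nat.prime_three rfl (by
        push_cast
        exact (mul_eq_zero.1 (by linear_combination h : (2 : F) * 3 = 0)).resolve_left h2)
    · exact absurd (eq_zero_of_pow_eq_zero (n := 2) (by linear_combination h)) h2
    · exact absurd (eq_zero_of_pow_eq_zero (n := 4) (by linear_combination h)) h2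
    · have h7 : (7 : F) = 0 :=
        (mul_eq_zero.1 (by linear_combination h : (2 : F) * 7 = 0)).resolve_left h2
      have hp7 : p = 7 := hdvd (by norm_num) rfl (by push_cast; exact h7)
      rcases htr 3 with h3 | h3 | h3 <;> push_cast at h3
      · have : (1 : F) = 0 := by linear_combination h3 - 5 * h7
        exact absurd this one_ne_zero
      · have : (1 : F) = 0 := by linear_combination -h3 + 5 * h7 - 0
        exact absurd this one_ne_zero
      · have : (3 : F) = 0 := by linear_combination -h3 + 5 * h7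
        exact hdvd Nat.prime_three rfl (by push_cast; exact this)
    · exact hdvd Nat.prime_three rfl (by
        push_cast
        exact (mul_eq_zero.1 (by linear_combination h : (4 : F) * 3 = 0)).resolve_left
          (fun h => h2 (eq_zero_of_pow_eq_zero (n := 2) (by linear_combination h))))
  subst hp3
  refine ⟨rfl, ?_⟩
  have h3 : (3 : F) = 0 := by exact_mod_cast CharP.cast_eq_zero F 3
  have hlam' : lam = 1 ∨ lam = -1 := by
    rcases hl1 with rfl | rfl
    · right; linear_combination h3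
    · left; linear_combination h3
  let ψ : Matrix.SpecialLinearGroup (Fin 2) (ZMod 3) →* SL₂F :=
    (glConj g).comp (Matrix.SpecialLinearGroup.map (ZMod.castHom dvd_rfl F))
  have hψ : Function.Injective ψ := by
    refine (glConj_injective g).comp fun u v h => Subtype.ext ?_
    ext i j
    have := congrArg (fun z : SL₂F => (z : M₂) i j) h
    exact (ZMod.castHom dvd_rfl F).injective (by simpa using this)
  have h1 : ψ (lowS 1) = a := by
    rw [← hga]
    refine congrArg (glConj g) (Subtype.ext ?_)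
    ext i j; fin_cases i <;> fin_cases j <;> simp [lowS_coe]
  have hu : ψ (upS 1) ∈ X := by
    have hu1 : ψ (upS 1) = glConj g (upS 1) := by
      refine congrArg (glConj g) (Subtype.ext ?_)
      ext i j; fin_cases i <;> fin_cases j <;> simp [upS_coe]
    rw [hu1]
    rcases hlam' with rfl | rfl
    · rw [hgb]; exact hbX
    · have : glConj g (upS (1 : F)) = b⁻¹ := by
        rw [← hgb, ← map_inv, upS_inv, neg_neg]
      rw [this]; exact inv_mem hbX
  have htop : X.comap ψ = ⊤ := by
    refine SL2.Dickson.eq_top_of_upS_lowS (fun t => ?_) (fun t => ?_)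
    · have : upS t = upS (1 : ZMod 3) ^ t.val := by
        rw [upS_nsmul, ZMod.natCast_zmod_val, mul_one]
      rw [this]; exact pow_mem (show upS (1 : ZMod 3) ∈ X.comap ψ from hu) _
    · have : lowS t = lowS (1 : ZMod 3) ^ t.val := by
        rw [← SL2.Dickson.lowS_nsmul, ZMod.natCast_zmod_val, mul_one]
      rw [this]
      exact pow_mem (show lowS (1 : ZMod 3) ∈ X.comap ψ by rw [Subgroup.mem_comap, h1]; exact haX) _
  exact ⟨ψ.range, by rintro _ ⟨u, rfl⟩; exact (htop ▸ Subgroup.mem_top u : u ∈ X.comap ψ),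
    ⟨(MonoidHom.ofInjective hψ).symm⟩⟩

end CfsgLib.ThompsonJ
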