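import Cfsg.Agent.Lib.PGroups.FaithfulStableSL
import Cfsg.Agent.Lib.PGroups.SLFreeCriteria

/-!
A pair of quadratic elements of a faithful group without `SL(2,p)` section generates a `p`-group
(`CfsgLib.ThompsonJ`).
-/

set_option autoImplicit false

open scoped commutatorElement
open Cfsg

namespace CfsgLib.ThompsonJ

variable {G : Type*} [Group G] [Finite G] {p : ℕ} [Fact p.Prime]

theorem isPGroup_closure_pair_of_slFree (hp : p ≠ 2) {V : Subgroup G}
    (hV : IsElementaryAbelian p V) {a b : G} (ha : a ∈ Subgroup.normalizer (V : Set G))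
    (hb : b ∈ Subgroup.normalizer (V : Set G))
    (hf : Subgroup.closure ({a, b} : Set G) ⊓ Subgroup.centralizer (V : Set G) = ⊥)
    (hqa : ⁅⁅V, Subgroup.zpowers a⁆, Subgroup.zpowers a⁆ = ⊥)
    (hqb : ⁅⁅V, Subgroup.zpowers b⁆, Subgroup.zpowers b⁆ = ⊥)
    (hfree : PGroups.SLFree p (Subgroup.closure ({a, b} : Set G))) :
    IsPGroup p (Subgroup.closure ({a, b} : Set G)) := by
  rintro ⟨t, ht⟩
  obtain ⟨k, hk⟩ := PGroups.slFree_quadratic_pair_pow_mem_centralizer hp hV.1 hV.2 ha hb hfree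
    (fun v hv => PGroups.conj_fix_of_quadratic (quadratic_zpowers_iff.1 hqa v hv))
    (fun v hv => PGroups.conj_fix_of_quadratic (quadratic_zpowers_iff.1 hqb v hv)) t ht
  have hmem : t ^ p ^ k ∈ Subgroup.closure ({a, b} : Set G) ⊓ Subgroup.centralizer (V : Set G) :=
    ⟨pow_mem ht _, hk⟩
  rw [hf, Subgroup.mem_bot] at hmem
  exact ⟨k, Subtype.ext (by simpa using hmem)⟩

/-- A non-`SLFree` group has an `SL(2, p)` section. -/
theorem exists_section_of_not_slFree {H : Subgroup G} (hnot : ¬ PGroups.SLFree p H) :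
    ∃ (K L : Subgroup G) (_ : (L.subgroupOf K).Normal), K ≤ H ∧
      Nonempty ((K ⧸ L.subgroupOf K) ≃* Matrix.SpecialLinearGroup (Fin 2) (ZMod p)) := by
  simp only [PGroups.SLFree, not_forall, not_not] at hnot
  obtain ⟨K, f, hf'⟩ := hnot
  obtain ⟨M, hM⟩ : ∃ M : Subgroup G, M = K.map H.subtype := ⟨_, rfl⟩
  let e : M ≃* K := (MulEquiv.subgroupCongr hM).trans
    (K.equivMapOfInjective H.subtype H.subtype_injective).symm
  have hsurj : Function.Surjective (f.comp e.toMonoidHom) := hf'.comp e.surjective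
  obtain ⟨L, hL⟩ : ∃ L : Subgroup G, L = (f.comp e.toMonoidHom).ker.map M.subtype := ⟨_, rfl⟩
  have hLK : L.subgroupOf M = (f.comp e.toMonoidHom).ker := by
    rw [hL]
    exact Subgroup.comap_map_eq_self_of_injective M.subtype_injective _
  have hn : (L.subgroupOf M).Normal := hLK ▸ inferInstance
  exact ⟨M, L, hn, hM ▸ Subgroup.map_subtype_le _,
    ⟨(QuotientGroup.quotientMulEquivOfEq hLK).trans
      (QuotientGroup.quotientKerEquivOfSurjective _ hsurj)⟩⟩

end CfsgLib.ThompsonJ
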